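import Cfsg.Agent.CGT.Cons

set_option autoImplicit false
set_option linter.style.haveILetI false

/-! Lifting the relations between `x`, `y`, `z`, `t` to a central extension. -/

namespace Cfsg.Agent.HNC

open Cfsg.Agent.CGT

theorem lift_t {Γ : Type*} [Group Γ] {N : Subgroup Γ} (hN : N ≤ Subgroup.center Γ) {X t : Γ}
    (h1 : t ^ 5 ∈ N) (h2 : X⁻¹ * t * X * t ^ 2 ∈ N) :
    ∃ a ∈ N, (t * a) ^ 5 = 1 ∧ X⁻¹ * (t * a) * X * (t * a) ^ 2 = 1 := by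
  have hc : ∀ {a}, a ∈ N → ∀ g, Commute a g := fun ha g => (Subgroup.mem_center_iff.1 (hN ha) g).symm
  generalize hd : X⁻¹ * t * X * t ^ 2 = d at h2
  generalize hc' : t ^ 5 = c at h1
  have e1 : X⁻¹ * t * X = d * (t ^ 2)⁻¹ := by rw [← hd]; group
  have e2 : c = d ^ 5 * (c ^ 2)⁻¹ := by
    have : (X⁻¹ * t * X) ^ 5 = X⁻¹ * c * X := by
      rw [← hc']; simpa using conj_pow (a := X⁻¹) (b := t) (i := 5)
    rw [e1, (hc h2 _).mul_pow, ← (hc h1 _).eq, mul_assoc, inv_mul_cancel, mul_one] at this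
    rw [← this, this, ← hc', ← pow_mul, mul_comm, pow_mul, ← inv_pow, hc', this]
  have e3 : d ^ 5 = c ^ 3 := by rw [eq_mul_inv_iff_mul_eq] at e2; rw [← e2]; group
  have ha : (d ^ 2)⁻¹ * c ∈ N := N.mul_mem (N.inv_mem (N.pow_mem h2 _)) h1
  have e4 : ∀ n, ((d ^ 2)⁻¹ * c) ^ n = ((d ^ n) ^ 2)⁻¹ * c ^ n := fun n => by
    rw [(hc h1 _).symm.mul_pow, inv_pow, ← pow_mul, mul_comm, pow_mul]
  refine ⟨_, ha, ?_, ?_⟩
  · rw [(hc ha _).symm.mul_pow, hc', e4, e3]; group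
  · have e5 := e4 3
    rw [← e3] at e5
    generalize (d ^ 2)⁻¹ * c = a at *
    have e6 := (hc ha (X * t ^ 2)).eq
    calc _ = X⁻¹ * t * (a * (X * t ^ 2)) * a ^ 2 := by rw [(hc ha _).symm.mul_pow]; group
      _ = X⁻¹ * t * X * t ^ 2 * a ^ 3 := by rw [e6]; group
      _ = 1 := by rw [hd, e5]; group

theorem lift_z {Γ : Type*} [Group Γ] {N : Subgroup Γ} (hN : N ≤ Subgroup.center Γ) {s z t : Γ}
    (h1 : (z * t) ^ 3 ∈ N) (h2 : z ^ 2 ∈ N) (h3 : s⁻¹ * z * s = z) (h4 : s⁻¹ * t * s = t⁻¹) :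
    ∃ b ∈ N, (z * b * t) ^ 3 = 1 ∧ (z * b) ^ 2 = 1 := by
  have hc : ∀ {a}, a ∈ N → ∀ g, Commute a g := fun ha g => (Subgroup.mem_center_iff.1 (hN ha) g).symm
  generalize hd : (z * t) ^ 3 = d at h1
  generalize hc' : z ^ 2 = c at h2
  have e1 : (z * t⁻¹) ^ 3 = d := by
    have : (s⁻¹ * (z * t) * s) ^ 3 = s⁻¹ * d * s := by
      rw [← hd]; simpa using conj_pow (a := s⁻¹) (b := z * t) (i := 3)
    rw [← (hc h1 _).eq, mul_assoc d, inv_mul_cancel, mul_one] at this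
    rw [← this, ← h4]; congr 1; conv_lhs => rw [← h3]
    group
  have e2 : (z⁻¹ * t⁻¹) ^ 3 = d⁻¹ := by
    have : z * (z⁻¹ * t⁻¹) ^ 3 * z⁻¹ = d⁻¹ := by rw [← hd]; simp only [pow_succ, pow_zero]; group
    rw [← ((hc h1 z).inv_left.eq ▸ mul_inv_cancel_right d⁻¹ z : z * d⁻¹ * z⁻¹ = d⁻¹)] at this
    simpa using this
  have e3 : c ^ 3 = d ^ 2 := by
    have : z * t⁻¹ = c * (z⁻¹ * t⁻¹) := by rw [← hc']; group
    rw [this, (hc h2 _).mul_pow, e2, mul_inv_eq_iff_eq_mul] at e1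
    rw [e1, pow_two]
  have hb : c * d⁻¹ ∈ N := N.mul_mem h2 (N.inv_mem h1)
  refine ⟨_, hb, ?_, ?_⟩
  · rw [mul_assoc z, (hc hb _).eq, ← mul_assoc, (hc hb _).symm.mul_pow, hd, (hc h2 _).mul_pow, e3]; group
  · rw [(hc hb _).symm.mul_pow, hc', (hc h2 _).mul_pow, ← mul_assoc, ← pow_succ', e3]; group

theorem lift_tz {K G Γ : Type} [Group K] [Group G] [Group Γ] [Finite K] [Finite Γ] {U : Subgroup K}
    (hi : U.index = 2) (hp : commutator U = ⊤) (hcl : Cover.Closed U) {γ : ℕ → K} (hz : γ 4 ∉ U)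
    (h2 : γ 4 * γ 4 = 1) {x y : U} (hx : γ 0 = x) (hy : γ 1 = y) (h6 : y ^ 6 = 1)
    (hs : γ 4 * (x * x) * (γ 4)⁻¹ = x * x) {ρ : K →* G} {π : Γ →* G} (hπ : IsStemExtension π) {t : G}
    (h : Holds (ext (zt ρ γ t)) [[0, 0, 0, 0, 0], [3, 0, 2, 0, 0], [1, 5, 0, 4], [10, 0, 10, 0, 10, 0]]) :
    ∃ (σ : K →* Γ) (t' : Γ), π.comp σ = ρ ∧ π t' = t ∧
      Holds (ext (zt σ γ t')) [[0, 0, 0, 0, 0], [3, 0, 2, 0, 0], [1, 5, 0, 4], [10, 0, 10, 0, 10, 0]] := by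
  haveI := Subgroup.normal_of_index_eq_two hi
  have key : ∀ {H : Type} [Group H] (f : K →* H) (u : H), Holds (ext (zt f γ u))
      [[0, 0, 0, 0, 0], [3, 0, 2, 0, 0], [1, 5, 0, 4], [10, 0, 10, 0, 10, 0]] ↔ u ^ 5 = 1 ∧
      (f x)⁻¹ * u * f x * u ^ 2 = 1 ∧ u⁻¹ * (f y)⁻¹ * u * f y = 1 ∧ (f (γ 4) * u) ^ 3 = 1 := by
    intro H _ f u
    simp [Holds, ext, zt, hx, hy, pow_succ, mul_assoc]
  obtain ⟨k1, k2, k3, k4⟩ := (key ρ t).1 h
  obtain ⟨σ, hσ⟩ := exists_section hp hcl (ρ.comp U.subtype) hπ.1 hπ.2.1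
  have h1 : ∀ u, π (σ u) = ρ u := fun u => DFunLike.congr_fun hσ u
  obtain ⟨t0, rfl⟩ := hπ.1 t
  obtain ⟨z0, hz0⟩ := hπ.1 (ρ (γ 4))
  obtain ⟨a, ha, a1, a2⟩ := lift_t hπ.2.1 (X := σ x) (t := t0) (by simpa [MonoidHom.mem_ker])
    (by simpa [MonoidHom.mem_ker, h1] using k2)
  have ht : π (t0 * a) = π t0 := by rw [map_mul, ha, mul_one]
  rw [← ht] at k3 k4 ⊢
  generalize t0 * a = t1 at *
  have a3 : (σ x)⁻¹ * t1 * σ x = (t1 ^ 2)⁻¹ := eq_inv_of_mul_eq_one_left a2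
  obtain ⟨b, hb, b1, b2⟩ := lift_z hπ.2.1 (s := σ (x * x)) (z := z0) (t := t1)
    (by simpa [MonoidHom.mem_ker, hz0] using k4)
    (by rw [MonoidHom.mem_ker, map_pow, hz0, pow_two, ← map_mul, h2, map_one]) (by
      have := (lift_conj hp hπ.2.1 hσ hz0 (x * x)).trans (congrArg σ (Subtype.ext hs : _ = x * x))
      rw [mul_inv_eq_iff_eq_mul] at this
      rw [mul_assoc, this]; group) (by
      have : (σ x)⁻¹ * t1 ^ 2 * σ x = (t1 ^ 4)⁻¹ := by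
        rw [show 4 = 2 * 2 from rfl, pow_mul, ← inv_pow, ← a3]
        simpa using (conj_pow (a := (σ x)⁻¹) (b := t1) (i := 2)).symm
      calc _ = (σ x)⁻¹ * ((σ x)⁻¹ * t1 * σ x) * σ x := by rw [map_mul]; group
        _ = ((σ x)⁻¹ * t1 ^ 2 * σ x)⁻¹ := by rw [a3]; group
        _ = t1 ^ 5 * t1⁻¹ := by rw [this]; group
        _ = _ := by rw [a1, one_mul])
  have hz1 : π (z0 * b) = ρ (γ 4) := by rw [map_mul, hb, mul_one, hz0]
  obtain ⟨f, f1, f2⟩ := extend_two hi hz h2 (pow_two (z0 * b) ▸ b2) (lift_conj hp hπ.2.1 hσ hz1)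
  refine ⟨f, t1, MonoidHom.ext fun k => ?_, rfl, (key f t1).2 ⟨a1, by rwa [f1], ?_, by rwa [f2]⟩⟩
  · by_cases hk : k ∈ U
    · exact (congrArg π (f1 ⟨k, hk⟩)).trans (h1 _)
    · have hk' : k * γ 4 ∈ U := by rw [Subgroup.mul_mem_iff_of_index_two hi]; tauto
      have := (congrArg π (f1 ⟨_, hk'⟩)).trans (h1 _)
      simpa [f2, hz1] using this
  · rw [f1]
    have e : t1⁻¹ * (σ y)⁻¹ * t1 * σ y ∈ Subgroup.center Γ :=
      hπ.2.1 (by simpa [MonoidHom.mem_ker, h1] using k3)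
    generalize hc : t1⁻¹ * (σ y)⁻¹ * t1 * σ y = c at e
    have hc' : ∀ g, Commute c g := fun g => (Subgroup.mem_center_iff.1 e g).symm
    have e1 : (σ y)⁻¹ * t1 * σ y = t1 * c := by rw [← hc]; group
    have e2 : t1⁻¹ * (σ y)⁻¹ * t1 = c * (σ y)⁻¹ := by rw [← hc]; group
    have e3 : c ^ 5 = 1 := by
      have := conj_pow (a := (σ y)⁻¹) (b := t1) (i := 5)
      rw [inv_inv, e1, (hc' _).symm.mul_pow, a1] at this
      simpa using this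
    have e4 : c ^ 6 = 1 := by
      have := conj_pow (a := t1⁻¹) (b := (σ y)⁻¹) (i := 6)
      rw [inv_inv, e2, (hc' _).mul_pow, inv_pow, ← map_pow, h6] at this
      simpa using this
    rwa [pow_succ, e3, one_mul] at e4

end Cfsg.Agent.HNC
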