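import Cfsg.Agent.Mult.Slices
import Cfsg.Agent.HNC.Sub

set_option autoImplicit false
set_option Elab.async false
set_option maxRecDepth 100000
set_option linter.all false

namespace Cfsg.Agent.HNC
open Cfsg.Agent.CGT

open Cfsg.Agent.Mult

noncomputable def u3_D : PC := ⟨3, 2, 2, 17,
  [[0, 4], [0, 0]],
  [0, 0],
  [(2, 1, 0xa), (2, 4, 4), (3, 1, 8)], 5, 0x10001⟩
noncomputable def u3_ds : List (List ℕ) := [[3, 5, 2, 1, 4, 4, 2, 5, 5, 3, 3, 5, 5, 2], [2, 4, 4, 3, 5, 5, 2, 4, 2, 0, 2, 1, 3, 0, 5, 0, 3, 3, 4], [5, 3, 1, 2, 4, 2, 5, 3, 1, 3, 0, 2, 4], [4, 3, 1, 2, 2, 0, 2, 2, 4, 4, 1, 4, 0, 4, 4, 3, 1]]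
noncomputable def u3_c : Mult.Cert := ⟨17, 15, [[], []],
  [],
  [[7, 9], [0, 4]]⟩
theorem u3_all : allB u3_D u3_c [.fus 2 [1, 0] [0, 1], .fus 2 [0, 0, 0] [], .fus 3 [2, 2, 2] []] 11 u_ts u3_ds [4, 27, 183, 0] [(26, [4]), (0, [1])] = true := by decide +kernel
theorem u3_pb {G : Type*} [Group G] [Finite G] {φ : G →* Equiv.Perm ℕ} {γ : ℕ → G}
    (M : Model φ γ 11 u_ns u_ts) (hB : IsBase φ ⊤ [4, 27, 183, 0]) (hN : Nat.card G = 88704000) : PBound G 3 0 :=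
  pbound_all M hB hN (by decide +kernel) (by decide +kernel) u3_all

end Cfsg.Agent.HNC
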