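import Cfsg.Agent.Mult.Slices
import Cfsg.Agent.HNC.Sub

set_option autoImplicit false
set_option Elab.async false
set_option maxRecDepth 100000
set_option linter.all false

namespace Cfsg.Agent.HNC
open Cfsg.Agent.CGT

open Cfsg.Agent.Mult

noncomputable def u5_D : PC := ⟨5, 3, 3, 22,
  [[0, 0x48, 0x40], [0, 0, 0x40], [0, 0, 0]],
  [7, 0, 0],
  [(3, 1, 4), (3, 8, 0x120), (3, 0x40, 0x40)], 11, 0x1010002020100020000⟩
noncomputable def u5_ds : List (List ℕ) := [[5, 3, 1, 4, 2, 2, 1, 2, 0, 5, 5, 0, 4], [0, 3, 5, 2, 0, 4, 2, 1, 4], [0, 2, 4, 4, 3, 1, 2, 0, 0, 4, 4, 2, 1, 3, 3, 4], [3, 1, 5, 5, 3, 3, 5, 5, 1, 3, 0, 5, 3, 5, 3, 4, 4, 3, 4]]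
noncomputable def u5_c : Mult.Cert := ⟨42, 19, [[], [], [1]],
  [],
  [[0xa, 0, 0xfa], [0, 0x755, 0x32], [0, 0, 0x9c4]]⟩
theorem u5_all : allB u5_D u5_c [.assoc 0x20 8 1, .fus 3 [2, 0] [0, 2], .fus 3 [2, 1] [1, 2], .fus 3 [0, 0, 0, 0, 0] [], .fus 3 [1, 1, 1, 1, 1] []] 11 u_ts u5_ds [4, 27, 183, 0] [(0, [0x40, 8]), (8, [1])] = true := by decide +kernel
theorem u5_pb {G : Type*} [Group G] [Finite G] {φ : G →* Equiv.Perm ℕ} {γ : ℕ → G}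
    (M : Model φ γ 11 u_ns u_ts) (hB : IsBase φ ⊤ [4, 27, 183, 0]) (hN : Nat.card G = 88704000) : PBound G 5 0 :=
  pbound_all M hB hN (by decide +kernel) (by decide +kernel) u5_all

end Cfsg.Agent.HNC
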