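import Cfsg.Agent.HNC.Dce
import Cfsg.Agent.HNC.Lift
import Cfsg.Agent.HNA.Goal
import Cfsg.Prelude.Def_Spor_HN
import Cfsg.Agent.HNC.Mul2
import Cfsg.Agent.HNC.Mul3
import Cfsg.Agent.HNC.Mul5

set_option autoImplicit false
set_option Elab.async false
set_option maxRecDepth 100000
set_option linter.all false

namespace Cfsg.Agent.HNC
open Cfsg.Agent.CGT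

open Cfsg.Agent.Mult

noncomputable def gens : List Cfsg.Spor.HN.Gen := [.x, .y, .z, .t]
theorem gens_all : ∀ x, x ∈ gens := by intro x; cases x <;> decide
theorem gens_nodup : gens.Nodup := by decide
/-- the generators -/
noncomputable abbrev δ : ℕ → Cfsg.Spor.HN := pγ gens Cfsg.Spor.HN.edges Cfsg.Spor.HN.extra
noncomputable def DR : List (List ℕ) := [[2, 2, 2, 2, 2, 2], [0, 0, 2, 0, 0, 3], [1, 3, 0, 2, 1, 3, 0, 2, 1, 3, 0, 2], [1, 2, 2, 0, 2, 2, 2, 1, 2, 2, 0, 2, 2, 2, 1, 2, 2, 0, 2, 2, 2], [0, 2, 0, 2, 0, 2, 0, 2, 0, 2, 0, 2, 0, 2, 0, 2], [0, 2, 0, 2, 2, 2, 0, 2, 0, 2, 2, 2, 0, 2, 0, 2, 2, 2, 0, 2, 0, 2, 2, 2], [4, 4], [4, 0, 4, 0], [5, 2, 1, 3, 3, 1, 3, 1, 3, 4, 2, 0, 2, 0, 2, 2, 0, 3, 1, 1],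 [4, 3, 1, 3, 1, 3, 3, 3, 4, 2, 2, 2, 0, 2, 0, 2, 0, 3, 1, 3, 1, 3, 3, 3, 4, 2, 2, 2, 0, 2, 0, 2, 0, 3, 1, 3, 1, 3, 3, 3, 4, 2, 2, 2, 0, 2, 0, 2, 0], [6, 6, 6, 6, 6], [1, 6, 0, 6, 6], [7, 3, 6, 2], [4, 6, 4, 6, 4, 6]]
theorem DR_eq : defR gens Cfsg.Spor.HN.edges Cfsg.Spor.HN.extra = DR := by decide +kernel
theorem hD : Holds (ext δ) DR := DR_eq ▸ pres_holds gens_all _ _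
theorem hA : Holds (ext (wg δ [[0], [2], [0, 2, 2, 2, 1], [0, 0]])) HNA.RR := hD.cons [([0, 0, 0, 0], [([1, 1], 6), ([], 7), ([1, 2, 2, 0, 2, 2, 2, 1, 2, 2, 0, 2, 2, 2, 1, 2, 2, 0, 2, 2], 3), ([1, 2, 2, 0, 2, 2, 2, 1, 2, 2, 0, 2, 2, 2, 1, 2, 2, 0, 2, 2, 0, 0, 3], 2), ([1, 2, 2, 0, 2, 2, 2, 1, 2, 2, 0, 2, 2, 2, 1, 2, 2, 0], 3), ([1, 2, 2, 0, 2, 2, 2, 1, 2, 2, 0, 2, 2, 2, 1, 2, 2, 0, 0, 3], 2), ([1, 2, 2, 0, 2, 2, 2, 1, 2, 2, 0, 2, 2, 2, 1], 3), ([1, 2, 2, 0, 2, 2, 2, 1, 2, 2, 0, 2, 2, 2, 0, 0, 3], 2), ([1, 2, 2, 0, 2, 2, 2, 1, 2, 2, 0, 2], 3), ([1, 2, 2, 0, 2, 2, 2, 1, 2, 2, 0, 2, 0, 0, 3], 2), ([1, 2, 2, 0, 2, 2, 2, 1, 2], 3), ([1, 2, 2, 0, 2, 2, 2, 1, 2, 0, 0, 3], 2), ([1, 2, 2, 0, 2, 2], 3), ([1,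 2, 2, 0, 2, 2, 0, 0, 3], 2), ([1, 2, 2, 0], 3), ([1, 2, 2, 0, 0, 3], 2), ([1], 3)]),
  ([0, 2, 2, 2, 1, 0, 2, 2, 2, 1], [([0], 1)]),
  ([0, 0, 0, 2, 2, 2, 1, 0, 0, 0, 3, 3, 3, 1], [([0, 2, 1, 1], 2), ([0, 2, 1, 1, 2, 1, 1], 3), ([0], 3)]),
  ([2, 2, 0, 2, 2, 2, 1, 2, 2, 0, 2, 2, 2, 1, 2, 2, 0, 2, 2, 2, 1], [([0], 7)]),
  ([2, 0, 2, 2, 2, 1, 0, 0, 2, 0, 2, 2, 2, 1, 0, 0, 2, 0, 2, 2, 2, 1, 0, 0, 2, 0, 2, 2, 2, 1, 0, 0], [([1], 11)])] (by decide +kernel)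
theorem hK : Holds (ext (wg δ [[0], [2], [0, 2, 2, 2, 1], [0, 0], [4]])) RR := (hD.append (HNA.goals rfl hA)).cons [([0, 0, 0, 0], [([1, 1], 6), ([], 7), ([1, 2, 2, 0, 2, 2, 2, 1, 2, 2, 0, 2, 2, 2, 1, 2, 2, 0, 2, 2], 3), ([1, 2, 2, 0, 2, 2, 2, 1, 2, 2, 0, 2, 2, 2, 1, 2, 2, 0, 2, 2, 0, 0, 3], 2), ([1, 2, 2, 0, 2, 2, 2, 1, 2, 2, 0, 2, 2, 2, 1, 2, 2, 0], 3), ([1, 2, 2, 0, 2, 2, 2, 1, 2, 2, 0, 2, 2, 2, 1, 2, 2, 0, 0, 3], 2), ([1, 2, 2, 0, 2, 2, 2, 1, 2, 2, 0, 2, 2, 2, 1], 3), ([1, 2, 2, 0, 2, 2, 2, 1, 2, 2, 0, 2, 2, 2, 0, 0, 3], 2), ([1, 2, 2, 0, 2, 2, 2, 1, 2, 2, 0, 2], 3), ([1, 2, 2, 0, 2, 2, 2, 1, 2, 2, 0, 2, 0, 0, 3], 2), ([1, 2, 2, 0, 2, 2, 2, 1, 2], 3), ([1, 2, 2, 0, 2, 2, 2, 1, 2, 0, 0, 3], 2),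 ([1, 2, 2, 0, 2, 2], 3), ([1, 2, 2, 0, 2, 2, 0, 0, 3], 2), ([1, 2, 2, 0], 3), ([1, 2, 2, 0, 0, 3], 2), ([1], 3)]),
  ([4, 2, 0, 2, 0, 2, 2, 0, 3, 1, 5, 0, 2, 1, 3, 3, 1, 3, 1, 3], [([2, 0, 2, 0, 2, 2, 0, 3, 1], 12), ([2, 0, 2, 0, 2, 2, 0, 3], 15), ([2, 0, 2, 0, 2, 2, 0, 3, 4], 17)]),
  ([4, 0, 0, 5, 1, 1], [([0, 0], 12), ([0, 0, 0], 15), ([0, 0, 0], 12), ([], 36), ([], 15)]),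
  ([4, 1, 2, 2, 1, 3, 1, 3, 1, 2, 2, 0, 3, 3, 0, 2, 0, 2, 0, 3, 3, 5, 2, 2, 1, 3, 1, 3, 1, 2, 2, 1, 3, 3, 0, 2, 0, 2, 0, 3, 3, 0], [([], 34), ([2, 0, 2, 0, 2, 2, 0, 3, 1, 2, 0, 2, 0, 2, 2, 0, 3, 1, 2, 0, 2, 0, 2, 2, 0, 3, 1, 2, 0, 2, 0, 2, 2, 0, 3, 1, 2, 0, 2, 0, 2, 2, 0, 3, 1, 2, 0, 2, 0, 2, 2, 0, 3, 1, 2, 0, 2, 0, 2, 2, 0, 3, 1], 41), ([2, 0, 2, 0, 2, 2, 0, 3, 1, 2, 0, 2, 0, 2, 2, 0, 3, 1, 2, 0, 2, 0, 2, 2, 0, 3, 1, 2, 0, 2, 0, 2, 2, 0, 3, 1, 2, 0, 2, 0, 2, 2, 0, 3, 1, 2, 0, 2, 0, 2, 2, 0, 3, 1], 39), ([2, 0, 2, 0, 2, 2, 0, 3, 1, 2, 0, 2, 0, 2, 2, 0, 3, 1, 2, 0, 2, 0, 2, 2, 0, 3, 1, 2, 0, 2, 0, 2, 2, 0, 3, 1, 2, 0, 2, 0, 2, 2, 0, 3, 1], 39), ([2, 0, 2, 0, 2, 2, 0, 3, 1, 2, 0, 2, 0, 2, 2, 0, 3,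 1, 2, 0, 2, 0, 2, 2, 0, 3, 1, 2, 0, 2, 0, 2, 2, 0, 3, 1], 39), ([2, 0, 2, 0, 2, 2, 0, 3, 1, 2, 0, 2, 0, 2, 2, 0, 3, 1, 2, 0, 2, 0, 2, 2, 0, 3, 1], 39), ([2, 0, 2, 0, 2, 2, 0, 3, 1, 2, 0, 2, 0, 2, 2, 0, 3, 1], 39), ([2, 0, 2, 0, 2, 2, 0, 3, 1], 39), ([], 39), ([4], 35)]),
  ([1, 2, 2, 1, 3, 1, 3, 1, 2, 2, 0, 3, 3, 0, 2, 0, 2, 0, 3, 3, 1, 2, 2, 1, 3, 1, 3, 1, 2, 2, 0, 3, 3, 0, 2, 0, 2, 0, 3, 3], [([2, 2, 1, 3, 1, 3, 1, 2, 2, 1, 3, 3, 0, 2, 0, 2, 0, 3, 3, 0], 18), ([], 19), ([4, 3, 1, 3, 1, 3, 3, 3, 4, 2, 2, 2, 0, 2, 0, 2, 0, 3, 1, 3, 1, 3, 3, 3, 4, 2, 2, 2, 0, 2, 0, 2, 0, 3, 1, 3, 1, 3, 3, 3, 4, 2, 2, 2, 0, 2, 0, 2], 31), ([4, 3, 1, 3, 1, 3, 3, 3, 4, 2, 2, 2, 0, 2, 0, 2, 0, 3, 1, 3, 1, 3, 3, 3, 4,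 2, 2, 2, 0, 2, 0, 2, 0, 3, 1, 3, 1, 3, 3, 3, 4, 2, 2, 2, 0, 2, 0], 29), ([4, 3, 1, 3, 1, 3, 3, 3, 4, 2, 2, 2, 0, 2, 0, 2, 0, 3, 1, 3, 1, 3, 3, 3, 4, 2, 2, 2, 0, 2, 0, 2, 0, 3, 1, 3, 1, 3, 3, 3, 4, 2, 2, 2, 0, 2, 2, 2, 1, 3, 1, 3, 1, 2, 2, 0, 3, 3, 0, 2, 0, 2, 0, 3, 3, 1], 30), ([4, 3, 1, 3, 1, 3, 3, 3, 4, 2, 2, 2, 0, 2, 0, 2, 0, 3, 1, 3, 1, 3, 3, 3, 4, 2, 2, 2, 0, 2, 0, 2, 0, 3, 1, 3, 1, 3, 3, 3, 4, 2, 2, 2, 0, 2, 2, 2, 1, 3, 1, 3, 1, 2, 2, 1, 3, 3, 0, 2, 0, 2, 0, 3, 3, 0, 3], 28), ([4, 3, 1, 3, 1, 3, 3, 3, 4, 2, 2, 2, 0, 2, 0, 2, 0, 3, 1, 3, 1, 3, 3, 3, 4, 2, 2, 2, 0, 2, 0, 2, 0, 3, 1, 3, 1, 3, 3, 3, 4, 2, 2, 2], 31), ([4, 3, 1, 3, 1, 3, 3, 3, 4, 2, 2, 2, 0, 2, 0, 2, 0, 3, 1, 3, 1, 3, 3, 3, 4,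 2, 2, 2, 0, 2, 0, 2, 0, 3, 1, 3, 1, 3, 3, 3, 4, 2, 2], 29), ([4, 3, 1, 3, 1, 3, 3, 3, 4, 2, 2, 2, 0, 2, 0, 2, 0, 3, 1, 3, 1, 3, 3, 3, 4, 2, 2, 2, 0, 2, 0, 2, 0, 3, 1, 3, 1, 3, 3, 3, 4, 2], 29), ([4, 3, 1, 3, 1, 3, 3, 3, 4, 2, 2, 2, 0, 2, 0, 2, 0, 3, 1, 3, 1, 3, 3, 3, 4, 2, 2, 2, 0, 2, 0, 2, 0, 3, 1, 3, 1, 3, 3, 3, 4], 29), ([4, 3, 1, 3, 1, 3, 3, 3, 4, 2, 2, 2, 0, 2, 0, 2, 0, 3, 1, 3, 1, 3, 3, 3, 4, 2, 2, 2, 0, 2, 0, 2, 0, 3, 1, 3, 1, 3, 3, 3], 42), ([4, 3, 1, 3, 1, 3, 3, 3, 4, 2, 2, 2, 0, 2, 0, 2, 0, 3, 1, 3, 1, 3, 3, 3, 4, 2, 2, 2, 0, 2, 0, 2, 0, 3, 1, 3, 1, 3, 3, 3], 28), ([4, 3, 1, 3, 1, 3, 3, 3, 4, 2, 2, 2, 0, 2, 0, 2, 0, 3, 1, 3, 1, 3, 3, 3, 4, 2, 2, 2, 0, 2, 0, 2, 0, 3, 1, 3, 1, 3, 3], 28),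 ([4, 3, 1, 3, 1, 3, 3, 3, 4, 2, 2, 2, 0, 2, 0, 2, 0, 3, 1, 3, 1, 3, 3, 3, 4, 2, 2, 2, 0, 2, 0, 2, 0, 3, 1, 3, 1, 3], 28), ([4, 3, 1, 3, 1, 3, 3, 3, 4, 2, 2, 2, 0, 2, 0, 2, 0, 3, 1, 3, 1, 3, 3, 3, 4, 2, 2, 2, 0, 2, 0, 2, 0, 3, 1, 3, 1], 30), ([4, 3, 1, 3, 1, 3, 3, 3, 4, 2, 2, 2, 0, 2, 0, 2, 0, 3, 1, 3, 1, 3, 3, 3, 4, 2, 2, 2, 0, 2, 0, 2, 0, 3, 1, 2, 1, 3, 1, 3, 1, 2, 2, 1, 3, 3, 0, 2, 0, 2, 0, 3, 3, 0], 29), ([4, 3, 1, 3, 1, 3, 3, 3, 4, 2, 2, 2, 0, 2, 0, 2, 0, 3, 1, 3, 1, 3, 3, 3, 4, 2, 2, 2, 0, 2, 0, 2, 0, 3, 1, 2, 2, 1, 3, 1, 3, 1, 2, 2, 1, 3, 3, 0, 2, 0, 2, 0, 3, 3, 0], 31), ([4, 3, 1, 3, 1, 3, 3, 3, 4, 2, 2, 2, 0, 2, 0, 2, 0, 3, 1, 3, 1, 3, 3, 3, 4, 2, 2, 2, 0, 2, 0, 2, 0, 3], 28), ([4, 3, 1,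 3, 1, 3, 3, 3, 4, 2, 2, 2, 0, 2, 0, 2, 0, 3, 1, 3, 1, 3, 3, 3, 4, 2, 2, 2, 0, 2, 0, 2, 2, 2, 1, 3, 1, 3, 1, 2, 2, 0, 3, 3, 0, 2, 0, 2, 0, 3, 3, 1], 30), ([4, 3, 1, 3, 1, 3, 3, 3, 4, 2, 2, 2, 0, 2, 0, 2, 0, 3, 1, 3, 1, 3, 3, 3, 4, 2, 2, 2, 0, 2, 0, 2, 2, 2, 1, 3, 1, 3, 1, 2, 2, 1, 3, 3, 0, 2, 0, 2, 0, 3, 3, 0, 3], 28), ([4, 3, 1, 3, 1, 3, 3, 3, 4, 2, 2, 2, 0, 2, 0, 2, 0, 3, 1, 3, 1, 3, 3, 3, 4, 2, 2, 2, 0, 2], 31), ([4, 3, 1, 3, 1, 3, 3, 3, 4, 2, 2, 2, 0, 2, 0, 2, 0, 3, 1, 3, 1, 3, 3, 3, 4, 2, 2, 2, 0], 29), ([4, 3, 1, 3, 1, 3, 3, 3, 4, 2, 2, 2, 0, 2, 0, 2, 0, 3, 1, 3, 1, 3, 3, 3, 4, 2, 2, 2, 2, 2, 1, 3, 1, 3, 1, 2, 2, 0, 3, 3, 0, 2, 0, 2, 0, 3, 3, 1], 30), ([4, 3, 1, 3, 1, 3, 3, 3, 4, 2, 2, 2, 0,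 2, 0, 2, 0, 3, 1, 3, 1, 3, 3, 3, 4, 2, 2, 2, 2, 2, 1, 3, 1, 3, 1, 2, 2, 1, 3, 3, 0, 2, 0, 2, 0, 3, 3, 0, 3], 28), ([4, 3, 1, 3, 1, 3, 3, 3, 4, 2, 2, 2, 0, 2, 0, 2, 0, 3, 1, 3, 1, 3, 3, 3, 4, 2, 2, 2, 2, 1, 3, 1, 3, 1, 2, 2, 1, 3, 3, 0, 2, 0, 2, 0, 3, 3, 0, 3], 28), ([4, 3, 1, 3, 1, 3, 3, 3, 4, 2, 2, 2, 0, 2, 0, 2, 0, 3, 1, 3, 1, 3, 3, 3, 4, 2, 2, 2, 1, 3, 1, 3, 1, 2, 2, 1, 3, 3, 0, 2, 0, 2, 0, 3, 3, 0, 3], 28), ([4, 3, 1, 3, 1, 3, 3, 3, 4, 2, 2, 2, 0, 2, 0, 2, 0, 3, 1, 3, 1, 3, 3, 3, 4, 2, 2, 1, 3, 1, 3, 1, 2, 2, 1, 3, 3, 0, 2, 0, 2, 0, 3, 3, 0, 5], 43), ([4, 3, 1, 3, 1, 3, 3, 3, 4, 2, 2, 2, 0, 2, 0, 2, 0, 3, 1, 3, 1, 3, 1, 3, 1, 3, 1, 2, 2, 1, 3, 3, 0, 2, 0, 2, 0, 3, 3, 0], 29), ([4, 3, 1, 3, 1,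 3, 3, 3, 4, 2, 2, 2, 0, 2, 0, 2, 0, 3, 1, 3, 1, 1, 3, 1, 3, 1, 2, 2, 1, 3, 3, 0, 2, 0, 2, 0, 3, 3, 0], 29), ([4, 3, 1, 3, 1, 3, 3, 3, 4, 2, 2, 2, 0, 2, 0, 2, 0, 3, 1, 3, 1, 2, 1, 3, 1, 3, 1, 2, 2, 1, 3, 3, 0, 2, 0, 2, 0, 3, 3, 0], 29), ([4, 3, 1, 3, 1, 3, 3, 3, 4, 2, 2, 2, 0, 2, 0, 2, 0, 3, 1, 3, 1, 2, 2, 1, 3, 1, 3, 1, 2, 2, 1, 3, 3, 0, 2, 0, 2, 0, 3, 3, 0], 31), ([4, 3, 1, 3, 1, 3, 3, 3, 4, 2, 2, 2, 0, 2, 0, 2, 0, 3, 1, 3], 28), ([4, 3, 1, 3, 1, 3, 3, 3, 4, 2, 2, 2, 0, 2, 0, 2, 0, 3, 1], 30), ([4, 3, 1, 3, 1, 3, 3, 3, 4, 2, 2, 2, 0, 2, 0, 2, 0, 2, 1, 3, 1, 3, 1, 2, 2, 1, 3, 3, 0, 2, 0, 2, 0, 3, 3, 0], 29), ([4, 3, 1, 3, 1, 3, 3, 3, 4, 2, 2, 2, 0, 2, 0, 2], 31), ([4, 3, 1, 3, 1, 3, 3, 3, 4, 2,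 2, 2, 0, 2, 0], 29), ([4, 3, 1, 3, 1, 3, 3, 3, 4, 2, 2, 2, 0, 2, 2, 2, 1, 3, 1, 3, 1, 2, 2, 0, 3, 3, 0, 2, 0, 2, 0, 3, 3, 1], 30), ([4, 3, 1, 3, 1, 3, 3, 3, 4, 2, 2, 2, 0, 2, 2, 2, 1, 3, 1, 3, 1, 2, 2, 1, 3, 3, 0, 2, 0, 2, 0, 3, 3, 0, 3], 28), ([4, 3, 1, 3, 1, 3, 3, 3, 4, 2, 2, 2], 31), ([4, 3, 1, 3, 1, 3, 3, 3, 4, 2, 2], 29), ([4, 3, 1, 3, 1, 3, 3, 3, 4, 2], 29), ([4, 3, 1, 3, 1, 3, 3, 3, 4], 29), ([4, 3, 1, 3, 1, 3, 3, 3], 42), ([4, 3, 1, 3, 1, 3, 3, 3], 28), ([4, 3, 1, 3, 1, 3, 3], 28), ([4, 3, 1, 3, 1, 3], 28), ([4, 3, 1, 3, 1], 30), ([4, 3, 1, 2, 1, 3, 1, 3, 1, 2, 2, 1, 3, 3, 0, 2, 0, 2, 0, 3, 3, 0], 29), ([4, 3, 1, 2, 2, 1, 3, 1, 3, 1, 2, 2, 1, 3, 3, 0, 2, 0, 2, 0, 3, 3, 0], 31), ([4, 3],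 28), ([], 42)]),
  ([1, 2, 2, 1, 3, 1, 3, 1, 2, 2, 0, 3, 3, 0, 2, 0, 2, 0, 3, 3], [([], 44), ([], 33)]),
  ([0, 2, 2, 2, 1, 0, 2, 2, 2, 1], [([0], 1)]),
  ([0, 0, 0, 2, 2, 2, 1, 0, 0, 0, 3, 3, 3, 1], [([0, 2, 1, 1], 2), ([0, 2, 1, 1, 2, 1, 1], 3), ([0], 3)]),
  ([2, 2, 0, 2, 2, 2, 1, 2, 2, 0, 2, 2, 2, 1, 2, 2, 0, 2, 2, 2, 1], [([0], 7)]),
  ([2, 0, 2, 2, 2, 1, 0, 0, 2, 0, 2, 2, 2, 1, 0, 0, 2, 0, 2, 2, 2, 1, 0, 0, 2, 0, 2, 2, 2, 1, 0, 0], [([1], 11)]),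
  ([4, 0, 0, 4, 0, 0], [([1], 12), ([1, 5, 0], 15), ([], 15)])] (by decide +kernel)
noncomputable def ZR : List (List ℕ) := [[1, 4, 0, 5], [1, 3, 4, 2, 0, 3, 5, 2], [0, 8, 0, 9], [0, 0, 0, 0, 0], [3, 0, 2, 0, 0], [10, 0, 10, 0, 10, 0]]
theorem hZ : Holds (ext (wg δ [[6], [0], [2], [0, 2, 2, 2, 1], [0, 0], [4]])) ZR := hD.cons [([0, 6, 1, 7, 7], [([0], 22), ([0, 6], 21), ([0, 6, 6, 6], 22)]),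
  ([7, 2, 6, 3], [([2], 24)]),
  ([7, 1, 2, 0, 6, 1, 3, 0], [([7, 1, 2, 6], 24), ([7, 1, 2, 6, 6], 24), ([7, 1, 2, 6, 6, 3, 7, 7], 28), ([7, 1, 2], 29)]),
  ([6, 0, 0, 6, 1, 1], [([6, 0], 29), ([6, 0, 0, 6, 1], 23)])] (by decide +kernel)
theorem hH : dd.hypB ZR 2 [0, 1] [(3, 0), (4, 1), (5, 1), (2, 0)] = true := by decide +kernel
noncomputable def Wd : List (List ℕ) := [[2], [4], [10], [0]]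
theorem gen_δ : gp δ [0, 2, 4, 6] = ⊤ := pres_gen gens_all _ _ (by decide +kernel)
theorem rho : ∃ ρ : K →* Cfsg.Spor.HN, δ = wg (zt ρ γ (δ 3)) Wd ∧ Holds (ext (zt ρ γ (δ 3))) ZR := by
  obtain ⟨ρ, h⟩ := pg_rho rfl hK 3
  exact ⟨ρ, h ▸ eq_wg_wg (n := 4) (fun j hj => by
    rw [δ, pγ, List.getElem?_eq_none (show gens.length ≤ j from hj)]) (by decide +kernel), h ▸ hZ⟩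
theorem fin : Finite Cfsg.Spor.HN := by
  obtain ⟨φ, C⟩ := cert
  haveI := C.fin
  obtain ⟨ρ, hW, hZ⟩ := rho
  have hy : dd.Hyp (Dce.ctx0.{0, 0, 0} φ γ ρ (δ 3) ρ.range) m_ns :=
    Dce.hyp0 (D := dd) (H := ρ.range) C.M C.base (by decide +kernel) (fun h => ⟨h, rfl⟩) hZ hH
  have hA : ∀ a, (Dce.ctx0.{0, 0, 0} φ γ ρ (δ 3) ρ.range).ι a ∈ ρ.range := fun _ => ρ.range.one_mem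
  haveI : Finite (Dce.ctx0.{0, 0, 0} φ γ ρ (δ 3) ρ.range).H :=
    Finite.of_surjective _ ρ.rangeRestrict_surjective
  exact Dce.finite_of_inX fun g => Dce.all_inX hy hA (by decide) (dd_all hy hA (stab C) C.orbit0.2)
    (pres_gen_zt gen_δ hW).ge (Subgroup.mem_top g)
theorem closedU : Cover.Closed U := by
  obtain ⟨φ, C⟩ := certU
  haveI := C.fin
  exact Cover.closed_of_mult (triv_of_bounds cardU [(2, 10), (3, 2), (5, 3), (7, 1), (11, 1)] (by decide +kernel) (by decide +kernel) (by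
    simp only [List.forall_mem_cons, List.not_mem_nil, IsEmpty.forall_iff, implies_true, and_true]
    exact ⟨.inr (u2_pb C.M C.base cardU),
      .inr (u3_pb C.M C.base cardU),
      .inr (u5_pb C.M C.base cardU),
      .inl (by decide),
      .inl (by decide)⟩))
theorem mult : Cfsg.HasCyclicSchurMultiplier Cfsg.Spor.HN 1 := by
  obtain ⟨φ, C⟩ := cert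
  haveI := C.fin
  haveI := fin
  obtain ⟨ρ, hW, hZ⟩ := rho
  refine (closed_of_lift gens_all gens_nodup C.M C.base (by decide +kernel) gen_δ hW rfl
    (ZR := [[0, 0, 0, 0, 0], [3, 0, 2, 0, 0], [1, 5, 0, 4], [10, 0, 10, 0, 10, 0]]) (DR_eq ▸ (by decide +kernel)) fun Γ _ _ π hπ => ?_).mult
  have hR := pg_holds 5 RR
  have h0 := (pg_holds 5 RR).cons [([8, 0, 0, 9, 1, 1], [([], 29), ([8], 38), ([8], 19), ([8], 14), ([8, 0, 0, 9, 7], 15)])] (W := [[0], [2], [8]]) (R := [[2, 2, 2, 2, 2, 2], [4, 4], [4, 0, 0, 5, 1, 1]]) (by decide +kernel)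
  refine lift_tz (x := subγ γ WU 0) (y := subγ γ WU 1) indexU perfU closedU z_notMem ?_
    ((ev_singleton _ _).trans (ext_two_mul γ 0)).symm ((ev_singleton _ _).trans (ext_two_mul γ 1)).symm ?_ ?_ hπ ?_
  · simpa [wg, ext, nth_eq] using h0 [4, 4] (by decide)
  · apply Subtype.ext
    rw [Subgroup.coe_pow]
    simpa [subγ, WU, wg, ext, nth_eq, pow_succ, mul_assoc] using h0 [2, 2, 2, 2, 2, 2] (by decide)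
  · rw [← mul_inv_eq_one]
    simpa [subγ, WU, wg, ext, nth_eq, mul_assoc] using h0 [4, 0, 0, 5, 1, 1] (by decide)
  · have h1 := hD.subR (D := DR.drop 10) (by decide +kernel)
    rw [hW] at h1
    exact h1.expand

end Cfsg.Agent.HNC
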